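import Cfsg.Agent.Lib.Helper81.CY3.Main
import Cfsg.Agent.Lib.Helper81.CY3.SH
import Cfsg.Agent.Lib.Helper82.CY2U.Main
import Cfsg.Agent.Lib.Helper19.CY2.CFG
import Cfsg.Agent.Lib.Helper19.CY2.CNT

set_option autoImplicit false
set_option linter.unusedSectionVars false
set_option linter.style.haveILetI false

/-! # Ladder PI5 (S4635), part A: invariants and shape of a block with cyclic defect group,
in terms of a maximal Brauer pair -/

namespace Cfsg.Agent.Lib.Helper19.PI5A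

open Cfsg Cfsg.Agent.Lib.Helper20 Cfsg.Agent.Lib.Helper80 Cfsg.Agent.Lib.Helper80.GA
open Cfsg.Agent.Lib.Helper81

variable {p : ℕ} [Fact p.Prime] {M : Ideal AlgInt} {G : Type*} [Group G] [Fintype G]

theorem rank_eq (hM : IsPModular p M) {B : Set (IrrCharacter G)} (hB : IsPBlock M B)
    {D : Subgroup G} (hPD : IsDefectGroup p M B D) (hcyc : IsCyclic D) (hD1 : D ≠ ⊥)
    {eD : GA (Kr hM) G} (hmax : IsMaxBP p (blkR hM B) D eD) :
    blockRank p B = (Cn D).relIndex (stabP D eD) := by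
  apply le_antisymm
  · exact Cfsg.Agent.Lib.Helper82.CY2U.ub hM hB hPD hcyc hD1 hmax
  · obtain ⟨C⟩ := Cfsg.Agent.Lib.Helper19.CY2.exists_cfg hM hB hPD hcyc hD1 hmax
    exact Cfsg.Agent.Lib.Helper19.CY2.le_blockRank_of_cfg hM hB C

theorem shape_of_max (hM : IsPModular p M) {B : Set (IrrCharacter G)} (hB : IsPBlock M B)
    {D : Subgroup G} (hPD : IsDefectGroup p M B D) (hcyc : IsCyclic D) (hD1 : D ≠ ⊥)
    {eD : GA (Kr hM) G} (hmax : IsMaxBP p (blkR hM B) D eD) {e : ℕ}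
    (he : (Cn D).relIndex (stabP D eD) = e) :
    ∃ (t : ℕ) (X Y : Set (IrrCharacter G)) (δ : IrrCharacter G → ℤ) (δ₀ : ℤ),
      1 ≤ e ∧ 1 ≤ t ∧ Nat.card D = e * t + 1 ∧ blockRank p B = e ∧ Nat.card B = e + t ∧
      CY3.Shape p B X Y e t δ δ₀ := by
  classical
  haveI : Finite (IrrCharacter G) := finite_irrCharacter
  haveI : Fintype (IrrCharacter G) := Fintype.ofFinite _
  have hp : p.Prime := Fact.out
  have hl : blockRank p B = e := by rw [← he]; exact rank_eq hM hB hPD hcyc hD1 hmax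
  obtain ⟨n0, t, x, hn0, hte, hcard, hsupp, hvan, hgram, -, hle⟩ :=
    Cfsg.Agent.Lib.Helper82.CY2U.ub_core hM hB hPD hcyc hD1 hmax
  rw [he] at hn0 hte
  have hn : n0 = e := by omega
  subst hn
  have hD2 : 1 < Nat.card D := by
    rw [Nat.one_lt_iff_ne_zero_and_ne_one]
    exact ⟨Nat.card_pos.ne', fun h => hD1 (Subgroup.card_eq_one.1 h)⟩
  have hpos : 0 < n0 * t := by omega
  have he1 : 1 ≤ n0 := Nat.pos_of_mul_pos_left hpos |> fun h => by
    rcases Nat.eq_zero_or_pos n0 with h0 | h0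
    · rw [h0, zero_mul] at hpos; omega
    · exact h0
  have ht1 : 1 ≤ t := by
    rcases Nat.eq_zero_or_pos t with h0 | h0
    · rw [h0, mul_zero] at hpos; omega
    · exact h0
  have hd : blockDefect p B ≠ 0 := by
    intro h0
    have h1 := Cfsg.Agent.Lib.Helper21.card_defectGroup hM B hB D hPD
    rw [h0, pow_zero] at h1
    omega
  obtain ⟨X, Y, δ, δ₀, hsh⟩ := CY3.sh hM hB hd ht1 (CY3.core_of hcard hsupp hvan hgram) hl
  exact ⟨t, X, Y, δ, δ₀, he1, ht1, hte, hl, by omega, hsh⟩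

end Cfsg.Agent.Lib.Helper19.PI5A
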