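import Cfsg.Agent.Lib.Helper19.PI5A.GEN
import Cfsg.Agent.Lib.Helper83.Wat.TR1
import Cfsg.Agent.Lib.Helper29.HKTrans
import Cfsg.Agent.S4636

set_option autoImplicit false
set_option linter.unusedSectionVars false
set_option linter.style.haveILetI false

/-! # Ladder PI5 (S4635), part A: `B` and its Brauer correspondent in `N_G(Z)` have the same
invariants and shapes -/

namespace Cfsg.Agent.Lib.Helper19.PI5A

open Cfsg Cfsg.Agent.Lib.Helper20 Cfsg.Agent.Lib.Helper80 Cfsg.Agent.Lib.Helper80.GA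
open Cfsg.Agent.Lib.Helper81

variable {p : ℕ} [Fact p.Prime] {M : Ideal AlgInt} {G : Type*} [Group G] [Fintype G]

theorem comm_of_cyc {P : Subgroup G} (hcyc : IsCyclic P) : ∀ x ∈ P, ∀ y ∈ P, x * y = y * x := by
  intro x hx y hy
  obtain ⟨g, hg⟩ := hcyc.exists_generator
  obtain ⟨i, hi⟩ := Subgroup.mem_zpowers_iff.1 (hg ⟨x, hx⟩)
  obtain ⟨j, hj⟩ := Subgroup.mem_zpowers_iff.1 (hg ⟨y, hy⟩)
  have h : (⟨x, hx⟩ : P) * ⟨y, hy⟩ = ⟨y, hy⟩ * ⟨x, hx⟩ := by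
    rw [← hi, ← hj, ← zpow_add, ← zpow_add, add_comm]
  exact congrArg Subtype.val h

/-- [HMAX] a maximal pair of `c` in `H` embeds to a maximal pair of `B` -/
theorem hmax_up (hM : IsPModular p M) {B : Set (IrrCharacter G)} (hB : IsPBlock M B)
    {P Z : Subgroup G} (hPD : IsDefectGroup p M B P) (hcyc : IsCyclic P) (hZ : Z ≤ P)
    [Fintype (Nn Z)] {c : Set (IrrCharacter (Nn Z))} (hc : IsInducedBlock M (Nn Z) c B)
    {e' : GA (Kr hM) (Nn Z)} (hmax' : IsMaxBP p (blkR hM c) (P.subgroupOf (Nn Z)) e') :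
    IsMaxBP p (blkR hM B) P (emb (Nn Z) e') := by
  have hab := comm_of_cyc hcyc
  have hdef := isDef_of_isDefectGroup hM hB hPD
  have hPH : P ≤ Nn Z := (le_Cn_of_abelian hab hZ).trans (Cn_le_Nn Z)
  have hCH : Cn P ≤ Nn Z := (Cn_anti hZ).trans (Cn_le_Nn Z)
  have hup : up (Nn Z) (P.subgroupOf (Nn Z)) = P := up_subgroupOf (Nn Z) hPH
  have hupC : up (Nn Z) (Cn (P.subgroupOf (Nn Z))) = Cn P := by
    rw [up_Cn, hup]; exact inf_eq_right.2 hCH
  have hblk : IsBlk (Cn P) (emb (Nn Z) e') := by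
    rw [← hupC, isBlk_up_iff]; exact hmax'.1.1.2
  have hbp : IsBP p P (emb (Nn Z) e') := ⟨hdef.pgroup, hblk⟩
  have hZp : IsPGroup p Z := hdef.pgroup.to_le hZ
  have h1 : br Z (blkR hM B) * bl hM (Nn Z) c = bl hM (Nn Z) c :=
    (Cfsg.Agent.Lib.Helper29.Kn.isInducedBlock_iff hM hZp (hZ.trans hPH) (Cn_le_Nn Z) le_rfl
      hc.1 hB).1 hc
  have h2 : br P (blkR hM B) * br P (bl hM (Nn Z) c) = br P (bl hM (Nn Z) c) := by
    have h3 := congrArg (br P) h1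
    rw [br_mul hdef.pgroup (((blkR_inZ hM B).2.mono le_top).br le_rfl |>.mono hPH)
      ((isBlk_bl hM (Nn Z) hc.1).inZ.2.mono hPH), br_br hZ] at h3
    exact h3
  have h4 : br P (bl hM (Nn Z) c) * emb (Nn Z) e' = emb (Nn Z) e' := by
    have h5 := congrArg (emb (Nn Z)) hmax'.1.2.2
    rwa [emb_mul, emb_br, hup, ← bl_eq_emb] at h5
  have hof : IsBPOf p (blkR hM B) P (emb (Nn Z) e') := by
    refine ⟨hbp, isBlk_blkR hM hB, ?_⟩
    rw [← h4, ← mul_assoc, h2]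
  exact hof.isMaxBP_of_isDef hdef

/-- [HIDX] the inertial indices agree -/
theorem hidx (hM : IsPModular p M) {P Z : Subgroup G} (hP : IsPGroup p P) (hP1 : P ≠ ⊥)
    (hcyc : IsCyclic P) (hZ : Z ≤ P) (hZcard : Nat.card Z = p) [Fintype (Nn Z)]
    {e' : GA (Kr hM) (Nn Z)} (he : IsBP p P (emb (Nn Z) e')) :
    (Cn (P.subgroupOf (Nn Z))).relIndex (stabP (P.subgroupOf (Nn Z)) e')
      = (Cn P).relIndex (stabP P (emb (Nn Z) e')) := by
  have hab := comm_of_cyc hcyc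
  have hPH : P ≤ Nn Z := (le_Cn_of_abelian hab hZ).trans (Cn_le_Nn Z)
  have hCH : Cn P ≤ Nn Z := (Cn_anti hZ).trans (Cn_le_Nn Z)
  have hNN : Nn P ≤ Nn Z := (Cfsg.Agent.S4636.result p P hP hP1 hcyc Z hZ hZcard).2 P le_rfl hP1
  have hup : up (Nn Z) (P.subgroupOf (Nn Z)) = P := up_subgroupOf (Nn Z) hPH
  have h1 : stabP (P.subgroupOf (Nn Z)) e' = (stabP P (emb (Nn Z) e')).subgroupOf (Nn Z) := by
    ext x
    have := Cfsg.Agent.Lib.Helper83.Wat.mem_stabP_loc hM he hPH hCH x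
    rw [rst_emb] at this
    rw [this, Subgroup.mem_subgroupOf]
  have h2 : Cn (P.subgroupOf (Nn Z)) = (Cn P).subgroupOf (Nn Z) := by
    ext x
    rw [Subgroup.mem_subgroupOf, ← coe_mem_up (Nn Z) (R := Cn (P.subgroupOf (Nn Z))), up_Cn, hup,
      Subgroup.mem_inf]
    exact ⟨fun h => h.2, fun h => ⟨x.2, h⟩⟩
  rw [h1, h2, Subgroup.relIndex_subgroupOf ((stabP_le_Nn P _).trans hNN)]

theorem partA (hM : IsPModular p M) {B : Set (IrrCharacter G)} (hB : IsPBlock M B)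
    {P Z : Subgroup G} (hPD : IsDefectGroup p M B P) (hP1 : P ≠ ⊥) (hcyc : IsCyclic P)
    (hZ : Z ≤ P) (hZcard : Nat.card Z = p) [Fintype (Nn Z)] {c : Set (IrrCharacter (Nn Z))}
    (hcD : IsDefectGroup p M c (P.subgroupOf (Nn Z))) (hc : IsInducedBlock M (Nn Z) c B) :
    ∃ (e t : ℕ) (X Y : Set (IrrCharacter G)) (δ : IrrCharacter G → ℤ) (δ₀ : ℤ)
      (X' Y' : Set (IrrCharacter (Nn Z))) (δ' : IrrCharacter (Nn Z) → ℤ) (δ₀' : ℤ),
      1 ≤ e ∧ 1 ≤ t ∧ blockRank p B = e ∧ blockRank p c = e ∧ Nat.card B = e + t ∧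
      Nat.card c = e + t ∧ CY3.Shape p B X Y e t δ δ₀ ∧ CY3.Shape p c X' Y' e t δ' δ₀' := by
  have hab := comm_of_cyc hcyc
  have hdef := isDef_of_isDefectGroup hM hB hPD
  have hPH : P ≤ Nn Z := (le_Cn_of_abelian hab hZ).trans (Cn_le_Nn Z)
  obtain ⟨e', hmax'⟩ := (isBlk_blkR hM hc.1).exists_isMaxBP_of_isDef
    (isDef_of_isDefectGroup hM hc.1 hcD)
  have hmax := hmax_up hM hB hPD hcyc hZ hc hmax'
  have hidx := hidx hM hdef.pgroup hP1 hcyc hZ hZcard hmax.1.1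
  have hcard : Nat.card (P.subgroupOf (Nn Z)) = Nat.card P :=
    Nat.card_congr (Subgroup.subgroupOfEquivOfLe hPH).toEquiv
  have hcyc' : IsCyclic (P.subgroupOf (Nn Z)) :=
    isCyclic_of_surjective (Subgroup.subgroupOfEquivOfLe hPH).symm.toMonoidHom
      (Subgroup.subgroupOfEquivOfLe hPH).symm.surjective
  have hP1' : P.subgroupOf (Nn Z) ≠ ⊥ := by
    intro h
    apply hP1
    rw [← Subgroup.card_eq_one, ← hcard, h, Subgroup.card_bot]
  obtain ⟨t, X, Y, δ, δ₀, he1, ht1, hq, hl, hk, hsh⟩ :=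
    shape_of_max hM hB hPD hcyc hP1 hmax rfl
  obtain ⟨t', X', Y', δ', δ₀', -, -, hq', hl', hk', hsh'⟩ :=
    shape_of_max hM hc.1 hcD hcyc' hP1' hmax' hidx
  have htt : t' = t := by
    rw [hcard, hq] at hq'
    have h3 : (Cn P).relIndex (stabP P (emb (Nn Z) e')) * t
        = (Cn P).relIndex (stabP P (emb (Nn Z) e')) * t' := by omega
    exact (Nat.eq_of_mul_eq_mul_left he1 h3).symm
  subst htt
  exact ⟨_, t', X, Y, δ, δ₀, X', Y', δ', δ₀', he1, ht1, hl, hl', hk, hk', hsh, hsh'⟩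

end Cfsg.Agent.Lib.Helper19.PI5A
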